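import Cfsg.Agent.Lib.Components.Signalizer

/-!
Systems of subgroups attached to the hyperplanes of an elementary abelian operator group: a solvable
group generated by the members of such a system has its hyperplane fixed points inside the system.
-/

set_option autoImplicit false
set_option linter.style.haveILetI false

namespace Cfsg.Agent.Lib.Components.Sig

open Subgroup Cfsg.Agent.Lib.Coprime
open scoped commutatorElement

variable {G : Type*} [Group G] [Finite G] {p : ℕ} [hp : Fact p.Prime] {A : Subgroup G}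

omit [Finite G] hp in
/-- Commutators of two elements of a group generated by a family, modulo a normalized subgroup. -/
theorem commutator_iSup_le {ι : Sort*} (S : ι → Subgroup G) {F : Subgroup G}
    (hn : ∀ i, S i ≤ normalizer (F : Set G))
    (h : ∀ i j, ∀ x ∈ S i, ∀ y ∈ S j, ⁅x, y⁆ ∈ F) : ⁅⨆ i, S i, ⨆ i, S i⁆ ≤ F := by
  have hN : (⨆ i, S i) ≤ normalizer (F : Set G) := iSup_le hn
  have hconj : ∀ g ∈ (⨆ i, S i), ∀ f ∈ F, g * f * g⁻¹ ∈ F := fun g hg f hf =>
    (mem_normalizer_iff.mp (hN hg) f).mp hf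
  have h1 : ∀ i, ∀ x ∈ S i, ∀ y ∈ (⨆ i, S i), ⁅x, y⁆ ∈ F := by
    intro i x hx y hy
    suffices y ∈ (⨆ i, S i) ∧ ⁅x, y⁆ ∈ F from this.2
    induction hy using iSup_induction' with
    | hp j y hy => exact ⟨mem_iSup_of_mem j hy, h i j x hx y hy⟩
    | h1 => exact ⟨one_mem _, by rw [commutatorElement_one_right]; exact one_mem F⟩
    | hmul a b _ _ ha hb =>
      refine ⟨mul_mem ha.1 hb.1, ?_⟩
      have e : ⁅x, a * b⁆ = ⁅x, a⁆ * (a * ⁅x, b⁆ * a⁻¹) := by simp [commutatorElement_def, mul_assoc]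
      rw [e]
      exact mul_mem ha.2 (hconj a ha.1 _ hb.2)
  rw [commutator_le]
  intro u hu y hy
  suffices u ∈ (⨆ i, S i) ∧ ⁅u, y⁆ ∈ F from this.2
  induction hu using iSup_induction' with
  | hp i x hx => exact ⟨mem_iSup_of_mem i hx, h1 i x hx y hy⟩
  | h1 => exact ⟨one_mem _, by rw [commutatorElement_one_left]; exact one_mem F⟩
  | hmul a b _ _ ha hb =>
    refine ⟨mul_mem ha.1 hb.1, ?_⟩
    have e : ⁅a * b, y⁆ = a * ⁅b, y⁆ * a⁻¹ * ⁅a, y⁆ := by simp [commutatorElement_def, mul_assoc]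
    rw [e]
    exact mul_mem (hconj a ha.1 _ hb.2) ha.2

/-- A subgroup of index at most `p` of `A`. -/
def IsHyperplane (p : ℕ) (A H : Subgroup G) : Prop := H ≤ A ∧ H.relIndex A ≤ p

/-- In a solvable group generated by a closed system, fixed points of a hyperplane lie in the system. -/
theorem fixed_le_of_system (hA : IsElementaryAbelian p A) (hA2 : p ^ 2 ≤ Nat.card A)
    (Z : Subgroup G → Subgroup G)
    (hZC : ∀ H, IsHyperplane p A H → Z H ≤ centralizer (H : Set G))
    (hZA : ∀ H, IsHyperplane p A H → A ≤ normalizer (Z H : Set G))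
    (hP : ∀ H H' H'', IsHyperplane p A H → IsHyperplane p A H' → IsHyperplane p A H'' →
      (Z H ⊔ Z H') ⊓ centralizer (H'' : Set G) ≤ Z H'')
    (E : Subgroup G) (hsol : Group.IsSolvable E) (hcop : (Nat.card A).Coprime (Nat.card E))
    (hAE : A ≤ normalizer (E : Set G))
    (hgen : E ≤ ⨆ H : {H : Subgroup G // IsHyperplane p A H}, E ⊓ Z H)
    {H₁ : Subgroup G} (hH₁ : IsHyperplane p A H₁) : E ⊓ centralizer (H₁ : Set G) ≤ Z H₁ := by
  induction h : Nat.card E using Nat.strong_induction_on generalizing E H₁ with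
  | _ n ih =>
  subst h
  by_cases hE : E = ⊥
  · subst hE; simp
  haveI := hsol
  set D := ⁅E, E⁆ with hD
  have hDE : D ≤ E := E.commutator_le_self
  have hlt : D < E := by
    haveI : Nontrivial E := (nontrivial_iff_ne_bot E).mpr hE
    refine lt_of_le_of_ne hDE fun e => Group.IsSolvable.commutator_lt_top_of_nontrivial E |>.ne ?_
    refine map_injective E.subtype_injective ?_
    rw [_root_.commutator_def, map_commutator, ← MonoidHom.range_eq_map, range_subtype]
    exact e
  have hED : E ≤ normalizer (D : Set G) := left_le_normalizer_commutator E E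
  have hAD : A ≤ normalizer (D : Set G) := by
    intro a ha
    rw [mem_normalizer_iff_map_conj_eq, hD, map_commutator]
    rw [mem_normalizer_iff_map_conj_eq.mp (hAE ha)]
  -- the part of the system inside the derived group
  set F := ⨆ H : {H : Subgroup G // IsHyperplane p A H}, D ⊓ Z H with hF
  have hFD : F ≤ D := iSup_le fun _ => inf_le_left
  have hpair : ∀ H H', IsHyperplane p A H → IsHyperplane p A H' → D ⊓ (Z H ⊔ Z H') ≤ F := by
    intro H H' hH hH'
    refine (gen_hyperplane hA hA2 (hcop.coprime_dvd_right (card_dvd_of_le (inf_le_left.trans hDE)))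
      ((le_inf hAD ((le_inf (hZA H hH) (hZA H' hH')).trans
        fun a ha => ?_)).trans inf_normalizer_le_normalizer_inf)).trans (iSup_le ?_)
    · rw [mem_normalizer_iff_map_conj_eq, Subgroup.map_sup, mem_normalizer_iff_map_conj_eq.mp ha.1,
        mem_normalizer_iff_map_conj_eq.mp ha.2]
    · rintro ⟨B, hB⟩
      exact le_trans (le_inf (inf_le_left.trans inf_le_left)
        ((inf_le_inf_right _ inf_le_right).trans (hP H H' B hH hH' hB)))
        (le_iSup (fun H : {H : Subgroup G // IsHyperplane p A H} => D ⊓ Z H) ⟨B, hB⟩)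
  have hcomm : ∀ (i j : {H : Subgroup G // IsHyperplane p A H}), ∀ x ∈ E ⊓ Z i, ∀ y ∈ E ⊓ Z j,
      ⁅x, y⁆ ∈ F := by
    intro i j x hx y hy
    refine hpair i j i.2 j.2 ⟨commutator_mem_commutator hx.1 hy.1, ?_⟩
    rw [commutatorElement_def]
    have hx' : x ∈ Z i ⊔ Z j := mem_sup_left hx.2
    have hy' : y ∈ Z i ⊔ Z j := mem_sup_right hy.2
    exact Subgroup.mul_mem _ (Subgroup.mul_mem _ (Subgroup.mul_mem _ hx' hy') (Subgroup.inv_mem _ hx')) (Subgroup.inv_mem _ hy')
  have hnorm : ∀ i : {H : Subgroup G // IsHyperplane p A H}, E ⊓ Z i ≤ normalizer (F : Set G) := by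
    intro i g hg
    have hc : ∀ g ∈ E ⊓ Z i, ∀ f ∈ F, g * f * g⁻¹ ∈ F := by
      intro g hg f hf
      induction hf using iSup_induction' with
      | hp j f hf =>
        have e : g * f * g⁻¹ = ⁅g, f⁆ * f := by simp [commutatorElement_def]
        rw [e]
        exact mul_mem (hcomm i j g hg f ⟨hDE hf.1, hf.2⟩) (mem_iSup_of_mem j hf)
      | h1 => simp [one_mem]
      | hmul a b _ _ ha hb =>
        have e : g * (a * b) * g⁻¹ = (g * a * g⁻¹) * (g * b * g⁻¹) := by group
        rw [e]; exact mul_mem ha hb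
    rw [mem_normalizer_iff]
    intro f
    refine ⟨hc g hg f, fun hf => ?_⟩
    have := hc g⁻¹ (inv_mem hg) _ hf
    simpa [mul_assoc] using this
  have hDF : D ≤ F := (commutator_mono hgen hgen).trans (commutator_iSup_le _ hnorm hcomm)
  have hIH : ∀ H, IsHyperplane p A H → D ⊓ centralizer (H : Set G) ≤ Z H := fun H hH =>
    ih _ ((Set.ncard_lt_ncard (SetLike.coe_ssubset_coe.mpr hlt) (Set.toFinite _))) D (isSolvable_of_le hDE hsol)
      (hcop.coprime_dvd_right (card_dvd_of_le hDE)) hAD hDF hH rfl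
  -- pass to the abelian quotient
  set N := normalizer (D : Set G) with hN
  haveI : (D.subgroupOf N).Normal := normal_subgroupOf_of_le_normalizer le_rfl
  let π := QuotientGroup.mk' (D.subgroupOf N)
  set V := (E.subgroupOf N).map π with hV
  set B := (H₁.subgroupOf N).map π with hB
  haveI : IsMulCommutative V := IsMulCommutative.of_setLike_mul_comm fun u hu v hv => by
    obtain ⟨x, hx, rfl⟩ := hu
    obtain ⟨y, hy, rfl⟩ := hv
    rw [← map_mul, ← map_mul]
    refine QuotientGroup.eq.mpr (mem_subgroupOf.mpr ?_)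
    have := commutator_mem_commutator (inv_mem (mem_subgroupOf.mp hy)) (inv_mem (mem_subgroupOf.mp hx))
    simpa [commutatorElement_def, mul_assoc] using this
  have hBV : B ≤ normalizer (V : Set (N ⧸ D.subgroupOf N)) :=
    (map_mono ((comap_mono (hH₁.1.trans hAE)).trans (le_normalizer_comap N.subtype))).trans
      (le_normalizer_map π)
  have hcopV : (Nat.card B).Coprime (Nat.card V) := by
    refine (hcop.coprime_dvd_left ?_).coprime_dvd_right ?_
    · refine (card_map_dvd _ π).trans ?_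
      rw [Nat.card_congr (subgroupOfEquivOfLe (hH₁.1.trans hAD)).toEquiv]
      exact card_dvd_of_le hH₁.1
    · refine (card_map_dvd _ π).trans ?_
      rw [Nat.card_congr (subgroupOfEquivOfLe hED).toEquiv]
  have hbot := inf_centralizer_inf_commutator hBV hcopV
  set T := (((E ⊓ Z H₁) ⊔ D).subgroupOf N).map π with hT
  have hsupN : (E ⊓ Z H₁) ⊔ D ≤ N := sup_le (inf_le_left.trans hED) le_normalizer
  have hVle : V ≤ T ⊔ ⁅V, B⁆ := by
    rintro _ ⟨⟨e, heN⟩, he, rfl⟩
    suffices ∀ e ∈ E, e ∈ E ∧ ∀ h : e ∈ N, π ⟨e, h⟩ ∈ T ⊔ ⁅V, B⁆ from (this e he).2 heN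
    intro e he
    have hgE := hgen he
    clear he
    induction hgE using iSup_induction' with
    | hp i e he' =>
      refine ⟨he'.1, fun h => ?_⟩
      -- split off the part fixed by `H₁`
      have hAi : A ≤ normalizer ((E ⊓ Z i : Subgroup G) : Set G) :=
        (le_inf hAE (hZA i i.2)).trans inf_normalizer_le_normalizer_inf
      have hs := commutator_sup_centralizer (K := E ⊓ Z i) (A := H₁) (hH₁.1.trans hAi)
        ((hcop.coprime_dvd_left (card_dvd_of_le hH₁.1)).coprime_dvd_right (card_dvd_of_le inf_le_left))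
        (Or.inr (isSolvable_of_le inf_le_left hsol))
      have hle : ⁅E ⊓ Z i, H₁⁆ ⊔ (E ⊓ Z i) ⊓ centralizer (H₁ : Set G) ≤
          ((T ⊔ ⁅V, B⁆).comap π).map N.subtype := by
        refine sup_le ?_ ?_
        · rw [commutator_le]
          intro x hx b hb
          have hxN := hED hx.1
          have hbN := hAD (hH₁.1 hb)
          refine ⟨⁅(⟨x, hxN⟩ : N), (⟨b, hbN⟩ : N)⁆, ?_, by simp [commutatorElement_def]⟩
          rw [SetLike.mem_coe, mem_comap, map_commutatorElement]
          exact mem_sup_right (commutator_mem_commutator (mem_map_of_mem π (mem_subgroupOf.mpr hx.1))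
            (mem_map_of_mem π (mem_subgroupOf.mpr hb)))
        · intro x hx
          refine ⟨⟨x, hED hx.1.1⟩, ?_, rfl⟩
          rw [SetLike.mem_coe, mem_comap]
          refine mem_sup_left (mem_map_of_mem π (mem_subgroupOf.mpr (mem_sup_left ⟨hx.1.1, ?_⟩)))
          exact hP i i H₁ i.2 i.2 hH₁ ⟨mem_sup_left hx.1.2, hx.2⟩
      obtain ⟨x, hx, hxe⟩ := hle (hs.ge he')
      have : x = ⟨e, h⟩ := Subtype.ext hxe
      rw [← this]; exact hx
    | h1 => exact ⟨one_mem _, fun h => by
        rw [show (⟨1, h⟩ : N) = 1 from rfl, map_one]; exact one_mem _⟩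
    | hmul a b _ _ ha hb =>
      refine ⟨mul_mem ha.1 hb.1, fun h => ?_⟩
      have := mul_mem (ha.2 (hED ha.1)) (hb.2 (hED hb.1))
      rw [← map_mul] at this
      exact this
  rintro y ⟨hy, hyc⟩
  have hcf : ∀ x : G, ∀ hx : x ∈ N, x ∈ centralizer (H₁ : Set G) →
      π ⟨x, hx⟩ ∈ centralizer (B : Set (N ⧸ D.subgroupOf N)) := by
    intro x hx hxc
    rw [mem_centralizer_iff]
    rintro _ ⟨b, hb, rfl⟩
    rw [← map_mul, ← map_mul]
    exact congrArg π (Subtype.ext (mem_centralizer_iff.mp hxc b (mem_subgroupOf.mp hb)))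
  have hTV : T ≤ V := map_mono (comap_mono (sup_le inf_le_left hDE))
  have hTB : T ≤ normalizer ((⁅V, B⁆ : Subgroup _) : Set (N ⧸ D.subgroupOf N)) :=
    hTV.trans (left_le_normalizer_commutator V B)
  obtain ⟨u, hu, w, hw, huw⟩ := (mem_sup_of_le_normalizer hTB).1
    (hVle (mem_map_of_mem π (mem_subgroupOf.mpr (show ((⟨y, hED hy⟩ : N) : G) ∈ E from hy))))
  obtain ⟨⟨z, hzN⟩, hz, rfl⟩ := hu
  obtain ⟨z₀, hz₀, d, hd, hzd⟩ := (mem_sup_of_le_normalizer (inf_le_left.trans hED)).1
    (mem_subgroupOf.mp hz)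
  have hz₀N : z₀ ∈ N := hED hz₀.1
  have hdN : d ∈ N := le_normalizer hd
  have hzq : π ⟨z, hzN⟩ = π ⟨z₀, hz₀N⟩ := by
    refine QuotientGroup.eq.mpr (mem_subgroupOf.mpr ?_)
    show z⁻¹ * z₀ ∈ D
    have hzd' : z₀ * d = z := hzd
    rw [← hzd', mul_inv_rev, inv_mul_cancel_right]
    exact inv_mem hd
  have hwc : w ∈ V ⊓ centralizer (B : Set (N ⧸ D.subgroupOf N)) := by
    have he : w = (π ⟨z, hzN⟩)⁻¹ * π ⟨y, hED hy⟩ := eq_inv_mul_of_mul_eq huw
    refine ⟨commutator_le_of_le_normalizer' hBV hw, ?_⟩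
    rw [he, hzq]
    exact Subgroup.mul_mem _ (Subgroup.inv_mem _ (hcf z₀ hz₀N (hZC H₁ hH₁ hz₀.2))) (hcf y (hED hy) hyc)
  have hw1 : w = 1 := mem_bot.mp (hbot ▸ ⟨hwc, hw⟩)
  rw [hw1, mul_one, hzq] at huw
  have hq : z₀⁻¹ * y ∈ D := mem_subgroupOf.mp (QuotientGroup.eq.mp huw)
  have hin : z₀⁻¹ * y ∈ Z H₁ :=
    hIH H₁ hH₁ ⟨hq, Subgroup.mul_mem _ (Subgroup.inv_mem _ (hZC H₁ hH₁ hz₀.2)) hyc⟩
  have := mul_mem hz₀.2 hin
  rwa [mul_inv_cancel_left] at this

end Cfsg.Agent.Lib.Components.Sig
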