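import Cfsg.Agent.Lib.Components.Signalizer
import Cfsg.Agent.Lib.Coprime.Product
import Mathlib.GroupTheory.Nilpotent

/-!
Factorization of a group from the factorizations of the centralizers of a noncyclic coprime group
of operators.
-/

set_option autoImplicit false
set_option linter.style.haveILetI false
set_option linter.unusedSectionVars false

namespace Cfsg.Agent.Lib.Components.Sig

open Subgroup Cfsg.Agent.Lib.Coprime
open scoped Pointwise commutatorElement

variable {G : Type*} [Group G] [Finite G] {p : ℕ} [hp : Fact p.Prime] {A : Subgroup G}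

theorem product_of_pGroup (hA : IsElementaryAbelian p A) (hA2 : p ^ 2 ≤ Nat.card ↥A) {q : ℕ}
    [Fact q.Prime] {Q X Y : Subgroup G} (hQ : IsPGroup q ↥Q) (hAQ : A ≤ normalizer (Q : Set G))
    (hcop : (Nat.card ↥A).Coprime (Nat.card ↥Q)) (hX : X ≤ Q) (hY : Y ≤ Q)
    (h : ∀ a ∈ A, a ≠ 1 → ∀ z ∈ Q ⊓ centralizer {a}, ∃ x ∈ X, ∃ y ∈ Y, x * y = z) :
    ∀ z ∈ Q, ∃ x ∈ X, ∃ y ∈ Y, x * y = z := by
  haveI := hQ.isNilpotent
  haveI := hA.1
  let T : ℕ → Subgroup G := fun i => (Subgroup.upperCentralSeries ↥Q i).map Q.subtype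
  have key : ∀ i, ∀ z ∈ Q, ∃ x ∈ X, ∃ y ∈ Y, ∃ w ∈ T i, x * y * w = z := by
    have hdown : ∀ i, (∀ z ∈ Q, ∃ x ∈ X, ∃ y ∈ Y, ∃ w ∈ T (i + 1), x * y * w = z) →
        ∀ z ∈ Q, ∃ x ∈ X, ∃ y ∈ Y, ∃ w ∈ T i, x * y * w = z := by
      intro i hi
      have hTQ : ∀ j, T j ≤ Q := fun j => map_subtype_le _
      have hTn : Q ≤ normalizer (T i : Set G) := by
        have h1 := le_normalizer_map (H := Subgroup.upperCentralSeries ↥Q i) Q.subtype
        rwa [normalizer_eq_top, ← MonoidHom.range_eq_map, range_subtype] at h1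
      have hc : ∀ w ∈ T (i + 1), ∀ y ∈ Q, ∃ v ∈ T i, y * w = w * y * v := by
        rintro _ ⟨w, hw, rfl⟩ y hy
        refine ⟨((⁅w⁻¹, (⟨y, hy⟩ : ↥Q)⁻¹⁆⁻¹ : ↥Q) : G), mem_map_of_mem Q.subtype
          (inv_mem (Subgroup.mem_upperCentralSeries_succ_iff.1 (inv_mem hw) _)), ?_⟩
        simp [commutatorElement_def, mul_assoc]
      let M : Submonoid G :=
        { carrier := {z | z ∈ Q ∧ ∀ x ∈ X, ∀ y ∈ Y, ∃ x' ∈ X, ∃ y' ∈ Y, ∃ w ∈ T i, x' * y' * w = x * y * z}
          one_mem' := ⟨one_mem Q, fun x hx y hy => ⟨x, hx, y, hy, 1, one_mem _, rfl⟩⟩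
          mul_mem' := by
            rintro z₁ z₂ ⟨hz₁, h₁⟩ ⟨hz₂, h₂⟩
            refine ⟨mul_mem hz₁ hz₂, fun x hx y hy => ?_⟩
            obtain ⟨x', hx', y', hy', w, hw, e₁⟩ := h₁ x hx y hy
            obtain ⟨x'', hx'', y'', hy'', w', hw', e₂⟩ := h₂ x' hx' y' hy'
            refine ⟨x'', hx'', y'', hy'', w' * (z₂⁻¹ * w * z₂), mul_mem hw' ?_, ?_⟩
            · exact (mem_normalizer_iff.1 (hTn hz₂) _).2 (by simpa [mul_assoc] using hw)
            · calc x'' * y'' * (w' * (z₂⁻¹ * w * z₂)) = (x'' * y'' * w') * (z₂⁻¹ * w * z₂) := by group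
                _ = (x' * y' * z₂) * (z₂⁻¹ * w * z₂) := by rw [e₂]
                _ = (x' * y' * w) * z₂ := by group
                _ = x * y * (z₁ * z₂) := by rw [e₁]; group }
      let S : Subgroup G :=
        { M with
          inv_mem' := fun {z} hz => by
            rw [inv_eq_of_mul_eq_one_right (show z * z ^ (orderOf z - 1) = 1 by
              rw [← pow_succ', Nat.sub_add_cancel (orderOf_pos z), pow_orderOf_eq_one])]
            exact pow_mem (show z ∈ M from hz) _ }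
      have hTS : T (i + 1) ≤ S := by
        have hTA : A ≤ normalizer (T (i + 1) : Set G) := by
          refine inv_iff.1 ?_
          rintro b hb _ ⟨x, hx, rfl⟩
          let e : ↥Q ≃* ↥Q := Q.normalizerMonoidHom ⟨b, hAQ hb⟩
          exact ⟨e x, (characteristic_iff_map_le.1 inferInstance e) (mem_map_of_mem e.toMonoidHom hx), rfl⟩
        rw [← fixGen_eq (K := T (i + 1)) (not_cyclic hA hA2) hTA
          (hcop.coprime_dvd_right (card_dvd_of_le (hTQ _)))]
        refine iSup₂_le fun a ha z hz => ?_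
        obtain ⟨hzT, hza⟩ := hz
        obtain ⟨x₀, hx₀, y₀, hy₀, e₀⟩ := h a ha.1 ha.2 z ⟨hTQ _ hzT, hza⟩
        refine ⟨hTQ _ hzT, fun x hx y hy => ?_⟩
        obtain ⟨v, hv, hv'⟩ := hc z hzT y (hY hy)
        refine ⟨x * x₀, mul_mem hx hx₀, y₀ * y, mul_mem hy₀ hy, v, hv, ?_⟩
        calc x * x₀ * (y₀ * y) * v = x * ((x₀ * y₀) * y * v) := by group
          _ = x * y * z := by rw [e₀, ← hv']; group
      intro z hz
      obtain ⟨x, hx, y, hy, w, hw, e⟩ := hi z hz
      obtain ⟨x', hx', y', hy', w', hw', e'⟩ := (hTS hw).2 x hx y hy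
      exact ⟨x', hx', y', hy', w', hw', e'.trans e⟩
    intro i
    have htop : T (Group.nilpotencyClass ↥Q) = Q := by
      show (Subgroup.upperCentralSeries ↥Q _).map Q.subtype = Q
      rw [Subgroup.upperCentralSeries_nilpotencyClass, ← MonoidHom.range_eq_map, range_subtype]
    by_cases hi : Group.nilpotencyClass ↥Q ≤ i
    · intro z hz
      refine ⟨1, one_mem _, 1, one_mem _, z, ?_, by simp⟩
      exact map_mono (Subgroup.upperCentralSeries_mono _ hi) (htop.ge hz)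
    · push Not at hi
      refine Nat.decreasingInduction (motive := fun k _ => ∀ z ∈ Q, ∃ x ∈ X, ∃ y ∈ Y, ∃ w ∈ T k, x * y * w = z)
        (fun k _ => hdown k) ?_ hi.le
      intro z hz
      exact ⟨1, one_mem _, 1, one_mem _, z, htop.ge hz, by simp⟩
  intro z hz
  obtain ⟨x, hx, y, hy, w, hw, e⟩ := key 0 z hz
  have hw1 : w = 1 := by
    rw [show T 0 = ⊥ by simp [T]] at hw
    exact mem_bot.1 hw
  exact ⟨x, hx, y, hy, by rwa [hw1, mul_one] at e⟩

/-- The cardinality of a Sylow image is the `q`-part. -/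
lemma card_sylow_image {K H : Subgroup G} {q : ℕ} [Fact q.Prime] (S : Sylow q ↥K)
    (h : (S : Subgroup ↥K).map K.subtype = H) : Nat.card ↥H = q ^ (Nat.card ↥K).factorization q := by
  rw [← h, card_map_of_injective K.subtype_injective]
  exact S.card_eq_multiplicity

lemma exists_sylow_image {K H : Subgroup G} {q : ℕ} [Fact q.Prime] (hHK : H ≤ K)
    (hH : IsPGroup q ↥H) {P : Sylow q ↥K} (hle : Nat.card ↥P ≤ Nat.card ↥H) :
    ∃ S : Sylow q ↥K, (S : Subgroup ↥K).map K.subtype = H := by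
  obtain ⟨S, hS⟩ := (hH.comap_subtype : IsPGroup q ↥(H.subgroupOf K)).exists_le_sylow
  refine ⟨S, ?_⟩
  have h1 : H.subgroupOf K = (S : Subgroup ↥K) := eq_of_le_of_card_ge hS (by
    rw [S.card_eq_multiplicity, ← P.card_eq_multiplicity, card_subgroupOf hHK]; exact hle)
  rw [← h1, map_subgroupOf_eq_of_le hHK]

theorem coe_eq_mul (hA : IsElementaryAbelian p A) (hA2 : p ^ 2 ≤ Nat.card ↥A) {K X Y : Subgroup G}
    (hK : ¬ p ∣ Nat.card ↥K) (hAK : A ≤ normalizer (K : Set G)) (hX : X ≤ K) (hY : Y ≤ K)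
    (hAX : A ≤ normalizer (X : Set G)) (hAY : A ≤ normalizer (Y : Set G))
    (hCX : K ⊓ centralizer (A : Set G) ≤ normalizer (X : Set G))
    (hfac : ∀ a ∈ A, a ≠ 1 → ((K ⊓ centralizer {a} : Subgroup G) : Set G) =
      ((X ⊓ centralizer {a} : Subgroup G) : Set G) * ((Y ⊓ centralizer {a} : Subgroup G) : Set G)) :
    (K : Set G) = (X : Set G) * (Y : Set G) := by
  have hcop := coprime_elem hA hK
  have hcX := hcop.coprime_dvd_right (card_dvd_of_le hX)
  have hcY := hcop.coprime_dvd_right (card_dvd_of_le hY)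
  have hsol := solvable_elem hA
  have hcI : (Nat.card ↥A).Coprime (Nat.card ↥(X ⊓ Y)) := hcX.coprime_dvd_right (card_dvd_of_le inf_le_left)
  have hAI : A ≤ normalizer ((X ⊓ Y : Subgroup G) : Set G) :=
    (le_inf hAX hAY).trans inf_normalizer_le_normalizer_inf
  have hnum : Nat.card ↥K * Nat.card ↥(X ⊓ Y) = Nat.card ↥X * Nat.card ↥Y := by
    refine Nat.eq_of_factorization_eq (Nat.mul_ne_zero Nat.card_pos.ne' Nat.card_pos.ne')
      (Nat.mul_ne_zero Nat.card_pos.ne' Nat.card_pos.ne') fun q => ?_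
    by_cases hq : q.Prime
    swap
    · rw [Nat.factorization_eq_zero_of_not_prime _ hq, Nat.factorization_eq_zero_of_not_prime _ hq]
    haveI := Fact.mk hq
    obtain ⟨R, hR⟩ := exists_invariant_sylow hAI hcI (Or.inl hsol) q
    let Rm : Subgroup G := (R : Subgroup ↥(X ⊓ Y)).map (X ⊓ Y).subtype
    have hRX : Rm ≤ X := (map_subtype_le _).trans inf_le_left
    have hRY : Rm ≤ Y := (map_subtype_le _).trans inf_le_right
    obtain ⟨PY, hPY, hPYA⟩ := exists_invariant_sylow_ge hAY hcY (Or.inl hsol) hRY (R.2.map _) hR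
    obtain ⟨Q, hQ, hQA⟩ := exists_invariant_sylow_ge hAK hcop (Or.inl hsol)
      ((map_subtype_le (PY : Subgroup ↥Y)).trans hY) (PY.2.map _) hPYA
    let Qm : Subgroup G := (Q : Subgroup ↥K).map K.subtype
    have hQq : IsPGroup q ↥Qm := Q.2.map _
    obtain ⟨PX, hPXA⟩ := exists_invariant_sylow hAX hcX (Or.inl hsol) q
    obtain ⟨Q', hQ', hQ'A⟩ := exists_invariant_sylow_ge hAK hcop (Or.inl hsol)
      ((map_subtype_le (PX : Subgroup ↥X)).trans hX) (PX.2.map _) hPXA
    obtain ⟨c, hc, hcQ⟩ := exists_centralizer_conj_sylow hAK hcop (Or.inl hsol) Q Q' hQA hQ'A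
    have hmap : MulAut.conj (c : G) • Qm = (Q' : Subgroup ↥K).map K.subtype := by
      rw [← hcQ]; exact (map_conj_smul _ _ _).symm
    have hcX' : MulAut.conj (c : G) • X = X := conj_smul_eq_self (hCX ⟨c.2, hc⟩)
    -- the three Sylow subgroups
    obtain ⟨SX, hSX⟩ := exists_sylow_image (K := X) (H := Qm ⊓ X) (P := PX) inf_le_right
      hQq.to_inf_left (by
        rw [← card_conj_smul (c : G) (Qm ⊓ X), Subgroup.smul_inf, hmap, hcX',
          ← show Nat.card ↥((PX : Subgroup ↥X).map X.subtype) = Nat.card ↥PX from card_map_of_injective X.subtype_injective]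
        exact card_le_of_le (le_inf hQ' (map_subtype_le _)))
    obtain ⟨SY, hSY⟩ := exists_sylow_image (K := Y) (H := Qm ⊓ Y) (P := PY) inf_le_right
      hQq.to_inf_left (by
        rw [← show Nat.card ↥((PY : Subgroup ↥Y).map Y.subtype) = Nat.card ↥PY from card_map_of_injective Y.subtype_injective]
        exact card_le_of_le (le_inf hQ (map_subtype_le _)))
    obtain ⟨SI, hSI⟩ := exists_sylow_image (K := X ⊓ Y) (H := Qm ⊓ (X ⊓ Y)) (P := R) inf_le_right
      hQq.to_inf_left (by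
        rw [← show Nat.card ↥((R : Subgroup ↥(X ⊓ Y)).map (X ⊓ Y).subtype) = Nat.card ↥R from card_map_of_injective (X ⊓ Y).subtype_injective]
        exact card_le_of_le (le_inf (hPY.trans hQ) (map_subtype_le _)))
    have hinv : ∀ {H : Subgroup G}, A ≤ normalizer (H : Set G) →
        A ≤ normalizer ((Qm ⊓ H : Subgroup G) : Set G) := fun hH =>
      (le_inf hQA hH).trans inf_normalizer_le_normalizer_inf
    -- the `q`-group case
    have hprod : ∀ z ∈ Qm, ∃ x ∈ Qm ⊓ X, ∃ y ∈ Qm ⊓ Y, x * y = z := by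
      refine product_of_pGroup hA hA2 hQq hQA (hcop.coprime_dvd_right (card_dvd_of_le (map_subtype_le _)))
        inf_le_left inf_le_left fun a ha ha1 z hz => ?_
      have hB : zpowers a ≤ A := zpowers_le.2 ha
      have eC : centralizer ((zpowers a : Subgroup G) : Set G) = centralizer {a} := by
        rw [zpowers_eq_closure, centralizer_closure]
      obtain ⟨TQ, hTQ⟩ := sylow_inf_centralizer hA hAK hcop hB Q hQA
      obtain ⟨TX, hTX⟩ := sylow_inf_centralizer hA hAX hcX hB SX (hSX.symm ▸ hinv hAX)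
      obtain ⟨TY, hTY⟩ := sylow_inf_centralizer hA hAY hcY hB SY (hSY.symm ▸ hinv hAY)
      obtain ⟨TI, hTI⟩ := sylow_inf_centralizer hA hAI hcI hB SI (hSI.symm ▸ hinv hAI)
      rw [hSX] at hTX
      rw [hSY] at hTY
      rw [hSI] at hTI
      have cQ := card_sylow_image TQ hTQ
      have cX := card_sylow_image TX hTX
      have cY := card_sylow_image TY hTY
      have cI := card_sylow_image TI hTI
      rw [eC] at cQ cX cY cI
      let C := centralizer ({a} : Set G)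
      have einf : (X ⊓ C) ⊓ (Y ⊓ C) = X ⊓ Y ⊓ C := by
        rw [inf_inf_inf_comm, inf_idem]
      have e1 : Nat.card ↥(K ⊓ C) * Nat.card ↥(X ⊓ Y ⊓ C) = Nat.card ↥(X ⊓ C) * Nat.card ↥(Y ⊓ C) := by
        rw [← card_coe_mul_mul_card_inf (X ⊓ C) (Y ⊓ C), einf, ← hfac a ha ha1]
        rfl
      have e2 : Nat.card ↥(Qm ⊓ C) * Nat.card ↥(Qm ⊓ (X ⊓ Y) ⊓ C) =
          Nat.card ↥(Qm ⊓ X ⊓ C) * Nat.card ↥(Qm ⊓ Y ⊓ C) := by
        rw [cQ, cX, cY, cI, ← pow_add, ← pow_add]
        congr 1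
        have := congrArg (fun n => n.factorization q) e1
        simp only [Nat.factorization_mul Nat.card_pos.ne' Nat.card_pos.ne', Finsupp.add_apply] at this
        exact this
      have einf2 : (Qm ⊓ X ⊓ C) ⊓ (Qm ⊓ Y ⊓ C) = Qm ⊓ (X ⊓ Y) ⊓ C := by
        apply SetLike.ext; intro g; simp only [Subgroup.mem_inf]; tauto
      rw [← card_coe_mul_mul_card_inf (Qm ⊓ X ⊓ C) (Qm ⊓ Y ⊓ C), einf2] at e2
      have hsub : ((Qm ⊓ X ⊓ C : Subgroup G) : Set G) * ((Qm ⊓ Y ⊓ C : Subgroup G) : Set G) ⊆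
          ((Qm ⊓ C : Subgroup G) : Set G) := by
        rintro _ ⟨x, hx, y, hy, rfl⟩
        exact (Qm ⊓ C).mul_mem ⟨hx.1.1, hx.2⟩ ⟨hy.1.1, hy.2⟩
      have heq := Set.eq_of_subset_of_ncard_le hsub (by
        rw [← Nat.card_coe_set_eq, ← Nat.card_coe_set_eq]
        exact (Nat.eq_of_mul_eq_mul_right Nat.card_pos e2).le)
      obtain ⟨x, hx, y, hy, hxy⟩ := heq.ge hz
      exact ⟨x, hx.1, y, hy.1, hxy⟩
    have e3 : Nat.card ↥Qm * Nat.card ↥(Qm ⊓ (X ⊓ Y)) = Nat.card ↥(Qm ⊓ X) * Nat.card ↥(Qm ⊓ Y) := by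
      rw [← card_coe_mul_mul_card_inf (Qm ⊓ X) (Qm ⊓ Y),
        show (Qm ⊓ X) ⊓ (Qm ⊓ Y) = Qm ⊓ (X ⊓ Y) by rw [inf_inf_inf_comm, inf_idem]]
      have hs : (Qm : Set G) = ((Qm ⊓ X : Subgroup G) : Set G) * ((Qm ⊓ Y : Subgroup G) : Set G) := by
        apply Set.ext
        intro z
        exact ⟨fun hz => by obtain ⟨x, hx, y, hy, e⟩ := hprod z hz; exact ⟨x, hx, y, hy, e⟩,
          fun ⟨x, hx, y, hy, e⟩ => e ▸ Qm.mul_mem hx.1 hy.1⟩
      rw [← hs]
      rfl
    rw [card_sylow_image Q rfl, card_sylow_image SX hSX, card_sylow_image SY hSY,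
      card_sylow_image SI hSI, ← pow_add, ← pow_add] at e3
    have := Nat.pow_right_injective hq.two_le e3
    rw [Nat.factorization_mul Nat.card_pos.ne' Nat.card_pos.ne',
      Nat.factorization_mul Nat.card_pos.ne' Nat.card_pos.ne', Finsupp.add_apply, Finsupp.add_apply]
    exact this
  rw [← card_coe_mul_mul_card_inf X Y] at hnum
  have hsub : (X : Set G) * (Y : Set G) ⊆ K := by
    rintro _ ⟨x, hx, y, hy, rfl⟩
    exact K.mul_mem (hX hx) (hY hy)
  refine (Set.eq_of_subset_of_ncard_le hsub ?_).symm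
  rw [← Nat.card_coe_set_eq, ← Nat.card_coe_set_eq]
  exact (Nat.eq_of_mul_eq_mul_right Nat.card_pos hnum).le

end Cfsg.Agent.Lib.Components.Sig
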